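import Cfsg.Agent.Lib.HeGrp.Gens0

set_option autoImplicit false

namespace Cfsg.Agent.Lib.HeGrp

open Cfsg.Agent.Lib.Compute Cfsg.Agent.Lib.PermKit Equiv


theorem aut_a : E.perm fa ∈ autG E rows 1 := by
  refine perm_mem_autG E (K := 129) pa (by norm_num) fun r hr i hi => ?_
  have hr2 : r = 0 := by omega
  rcases hr2 with rfl
  · exact auta0 i hi

theorem aut_b : E.perm fb ∈ autG E rows 1 := by
  refine perm_mem_autG E (K := 129) pb (by norm_num) fun r hr i hi => ?_
  have hr2 : r = 0 := by omega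
  rcases hr2 with rfl
  · exact autb0 i hi

theorem H_le : H ≤ autG E rows 1 := closure_pair_le aut_a aut_b

theorem mem_a : E.perm fa ∈ H := mem_pair_left _ _
theorem mem_b : E.perm fb ∈ H := mem_pair_right _ _

theorem in_a : InK E H fa := ⟨_, mem_a, Enc.isCode_perm E pa⟩
theorem in_b : InK E H fb := ⟨_, mem_b, Enc.isCode_perm E pb⟩
theorem in_ai : InK E H fai := inK_inv mem_a (Enc.isCode_perm E pa) ia
theorem in_bi : InK E H fbi := inK_inv mem_b (Enc.isCode_perm E pb) ib

theorem gc_in (k : ℕ) : InK E H (gc k) := gc_inK in_a in_b in_ai in_bi k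

theorem order_a : orderOf (E.perm fa) = 7 :=
  orderOf_of_code (by norm_num) (Enc.isCode_perm E pa) oa (by norm_num) na

theorem order_b : orderOf (E.perm fb) = 7 :=
  orderOf_of_code (by norm_num) (Enc.isCode_perm E pb) ob (by norm_num) nb

end Cfsg.Agent.Lib.HeGrp
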