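/-
The point stabiliser of the Held group contains `Sp₄(4)` with index two.
-/
import Cfsg.Agent.Lib.HeGrp.SpData
import Cfsg.Agent.Lib.PermKit.Card
import Cfsg.Agent.S0245

set_option autoImplicit false
set_option maxRecDepth 100000

open scoped Matrix
open Matrix

namespace Cfsg.Agent.Lib.HeGrp

open Cfsg.Agent.Lib.Compute Cfsg.Agent.Lib.PermKit Equiv Cfsg.Agent.Lib.HeGrp.SpF MulAction
open Cfsg.Agent.Lib.Classical Cfsg.Agent.Lib.Classical.FF4

/-- The point stabiliser. -/
noncomputable abbrev SS := MulAction.stabilizer H (0 : Fin 2058)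

/-- The incidence between points and vectors. -/
noncomputable def Inc (x : Fin 2058) (v : VV) : Bool := (irow x.val).testBit (vidx v)

/-- Compatible pairs. -/
noncomputable def CC : Subgroup (SS × SpG) where
  carrier := {p | ∀ x v, Inc (((p.1 : H) : Perm (Fin 2058)) x) ((p.2 : MM) *ᵥ v) = Inc x v}
  one_mem' := fun x v => by
    show Inc x ((1 : MM) *ᵥ v) = Inc x v
    rw [Matrix.one_mulVec]
  mul_mem' := fun {a b} ha hb x v => by
    show Inc (((a.1 : H) : Perm (Fin 2058)) (((b.1 : H) : Perm (Fin 2058)) x))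
      (((a.2 : MM) * (b.2 : MM)) *ᵥ v) = Inc x v
    rw [← Matrix.mulVec_mulVec, ha, hb]
  inv_mem' := fun {a} ha x v => by
    have h := ha ((((a.1⁻¹ : SS) : H) : Perm (Fin 2058)) x) (((a.2⁻¹ : SpG) : MM) *ᵥ v)
    show Inc ((((a.1⁻¹ : SS) : H) : Perm (Fin 2058)) x) (((a.2⁻¹ : SpG) : MM) *ᵥ v) = Inc x v
    rw [← h]
    have h1 : ((a.1 : H) : Perm (Fin 2058)) (((((a.1⁻¹ : SS) : H) : Perm (Fin 2058))) x) = x := by
      show (((a.1 : H) : Perm (Fin 2058)) * (((a.1 : H) : Perm (Fin 2058)))⁻¹) x = x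
      rw [mul_inv_cancel]
      rfl
    have h2 : (a.2 : MM) *ᵥ (((a.2⁻¹ : SpG) : MM) *ᵥ v) = v := by
      rw [Matrix.mulVec_mulVec]
      show ((a.2 * a.2⁻¹ : SpG) : MM) *ᵥ v = v
      rw [mul_inv_cancel]
      exact Matrix.one_mulVec v
    rw [h1, h2]

theorem mem_CC {p : SS × SpG} :
    p ∈ CC ↔ ∀ x v, Inc (((p.1 : H) : Perm (Fin 2058)) x) ((p.2 : MM) *ᵥ v) = Inc x v := Iff.rfl

theorem compat_spec {f tm : ℕ → ℕ} (h : compat f tm = true) {x y : ℕ} (hx : x < 2058) (hy : y < 256) :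
    (irow (f x)).testBit (tm y) = (irow x).testBit y := by
  have h1 := (allBelow_iff _ _).1 h x hx
  simp only [force_eq] at h1
  cases h2 : Nat.beq (irow x) 0
  · rw [h2, bcond_false] at h1
    have h3 := (allBelow_iff _ _).1 h1 y hy
    rw [tb_eq, tb_eq] at h3
    cases h4 : (irow x).testBit y
    · rw [h4, bcond_false] at h3
      cases h5 : (irow (f x)).testBit (tm y)
      · rfl
      · rw [h5, bcond_true] at h3
        exact absurd h3 (by simp)
    · rw [h4, bcond_true] at h3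
      exact h3
  · rw [h2, bcond_true] at h1
    rw [Nat.eq_of_beq_eq_true h1, Nat.eq_of_beq_eq_true h2]
    simp

/-- A pair of coded permutations gives a transvection in the image. -/
theorem tv_mem_image {f tm : ℕ → ℕ} {c : ℕ} (hp : checkPerm 2058 f = true)
    (ha : ∀ i, i < 2058 → rowOK rows 129 f 0 i = true) (h0 : f 0 = 0)
    (ht : ∀ i, i < 256 → tm i = vidx (tvF (vpt c) (vpt i))) (hc : compat f tm = true) :
    tv (vpt c) 1 ∈ CC.map (MonoidHom.snd SS SpG) := by
  have hH : E.perm f ∈ H := by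
    rw [H_eq]
    refine perm_mem_autG E (K := 129) hp (by norm_num) fun r hr i hi => ?_
    have hr0 : r = 0 := by omega
    subst hr0
    exact ha i hi
  have hfix : (⟨E.perm f, hH⟩ : H) • (0 : Fin 2058) = 0 := by
    show E.perm f 0 = 0
    rw [E.perm_apply hp]
    show E.pt (f 0) = 0
    rw [h0]
    rfl
  refine Subgroup.mem_map.2 ⟨(⟨⟨E.perm f, hH⟩, hfix⟩, tv (vpt c) 1), ?_, rfl⟩
  intro x v
  show Inc (E.perm f x) (((tv (vpt c) 1 : SpG) : MM) *ᵥ v) = Inc x v
  rw [tv_mulVec]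
  show (irow (E.idx (E.perm f x))).testBit (vidx (tvF (vpt c) v)) = (irow x.val).testBit (vidx v)
  rw [E.idx_perm_apply hp]
  have h1 := ht (vidx v) (vidx_lt v)
  rw [vpt_vidx] at h1
  rw [← h1]
  exact compat_spec hc x.isLt (vidx_lt v)

theorem image_top : CC.map (MonoidHom.snd SS SpG) = ⊤ := by
  have h0 := tv_mem_image sg0_perm sg0_aut sg0_fix tm0_spec compat0
  have h1 := tv_mem_image sg1_perm sg1_aut sg1_fix tm1_spec compat1
  have h2 := tv_mem_image sg2_perm sg2_aut sg2_fix tm2_spec compat2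
  have h3 := tv_mem_image sg3_perm sg3_aut sg3_fix tm3_spec compat3
  have h4 := tv_mem_image sg4_perm sg4_aut sg4_fix tm4_spec compat4
  refine eq_top_of_orbit _ (fs := tms) (b := 1) (fuel := 300) ?_ (by norm_num) h0 bfs_all
  intro f hf
  simp only [tms, List.mem_cons, List.not_mem_nil, or_false] at hf
  rcases hf with rfl | rfl | rfl | rfl | rfl
  · exact ⟨_, h0, tm0_spec⟩
  · exact ⟨_, h1, tm1_spec⟩
  · exact ⟨_, h2, tm2_spec⟩
  · exact ⟨_, h3, tm3_spec⟩
  · exact ⟨_, h4, tm4_spec⟩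

theorem CC_surj (t : SpG) : ∃ s : SS, (s, t) ∈ CC := by
  have h : t ∈ CC.map (MonoidHom.snd SS SpG) := by
    rw [image_top]
    exact Subgroup.mem_top t
  obtain ⟨⟨s, t'⟩, h1, rfl⟩ := Subgroup.mem_map.1 h
  exact ⟨s, h1⟩

theorem XL_lt : allN (fun x => Nat.blt x 2058) XL = true := by decide +kernel

theorem XL_lt' {x : ℕ} (hx : x ∈ XL) : x < 2058 := by
  have := allN_spec XL_lt hx
  simpa [Nat.blt_eq] using this

/-- The columns of the incidence table are distinct. -/
theorem col_ne {i j : ℕ} (hi : i < 256) (hj : j < 256) (hij : i ≠ j) :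
    ∃ x : Fin 2058, (irow x.val).testBit i ≠ (irow x.val).testBit j := by
  have h1 := (allBelow_iff _ _).1 ((allBelow_iff _ _).1 col_sep i hi) j hj
  have h2 : Nat.beq i j = false := by
    cases h3 : Nat.beq i j
    · rfl
    · exact absurd (Nat.eq_of_beq_eq_true h3) hij
  rw [h2, bcond_false, List.any_eq_true] at h1
  obtain ⟨x, hx, h3⟩ := h1
  refine ⟨⟨x, XL_lt' hx⟩, ?_⟩
  rw [force_eq, tb_eq, tb_eq] at h3
  show (irow x).testBit i ≠ (irow x).testBit j
  intro h4
  rw [h4] at h3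
  cases h5 : (irow x).testBit j
  · rw [h5] at h3
    exact absurd h3 (by simp)
  · rw [h5] at h3
    exact absurd h3 (by simp)

theorem CC_inj1 (p : SS × SpG) (hp : p ∈ CC) (h1 : p.1 = 1) : p.2 = 1 := by
  have key : ∀ v : VV, (p.2 : MM) *ᵥ v = v := by
    intro v
    by_contra hne
    have hij : vidx ((p.2 : MM) *ᵥ v) ≠ vidx v := fun h => hne (by
      rw [← vpt_vidx ((p.2 : MM) *ᵥ v), h, vpt_vidx])
    obtain ⟨x, hx⟩ := col_ne (vidx_lt _) (vidx_lt v) hij
    apply hx
    have h2 := hp x v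
    rw [h1] at h2
    exact h2
  apply Subtype.ext
  apply Matrix.mulVec_injective
  funext v
  rw [key v]
  exact (Matrix.one_mulVec v).symm

theorem irow_testBit_high (x : ℕ) {j : ℕ} (hj : 256 ≤ j) : (irow x).testBit j = false := by
  have h : irow x = (Nat.shiftRight iT (Nat.mul 256 (pget 8 255 posT x))) &&& (2 ^ 256 - 1) := rfl
  rw [h, Nat.testBit_and, Nat.testBit_two_pow_sub_one]
  simp [hj]

theorem CC_inj2 (p : SS × SpG) (hp : p ∈ CC) (h2 : p.2 = 1) : p.1 = 1 := by
  set τ : Perm (Fin 2058) := ((p.1 : H) : Perm (Fin 2058)) with hτ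
  have hinc : ∀ x v, Inc (τ x) v = Inc x v := by
    intro x v
    have h3 := hp x v
    rw [h2] at h3
    have h4 : ((1 : SpG) : MM) *ᵥ v = v := Matrix.one_mulVec v
    rw [h4] at h3
    exact h3
  have hrow : ∀ x, irow (τ x).val = irow x.val := by
    intro x
    apply Nat.eq_of_testBit_eq
    intro j
    by_cases hj : j < 256
    · have h3 := hinc x (vpt j)
      unfold Inc at h3
      rwa [vidx_vpt hj] at h3
    · rw [irow_testBit_high _ (by omega), irow_testBit_high _ (by omega)]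
  have hX : ∀ x ∈ XL, τ (E.pt x) = E.pt x := by
    intro x hx
    have hxlt := XL_lt' hx
    have h3 := allN_spec irow_sep hx
    rw [force_eq] at h3
    have h4 := (allBelow_iff _ _).1 h3 (τ (E.pt x)).val (τ (E.pt x)).isLt
    have h5 : (E.pt x).val = x := E.idx_pt x hxlt
    have h6 : irow (τ (E.pt x)).val = irow x := by
      rw [hrow, h5]
    rw [h6, Nat.beq_refl, bcond_true] at h4
    cases h7 : Nat.beq (τ (E.pt x)).val x
    · rw [h7, bcond_false] at h4
      exact absurd h4 (by simp)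
    · apply Fin.ext
      rw [Nat.eq_of_beq_eq_true h7, h5]
  have h0 : τ 0 = 0 := p.1.2
  have hτaut : τ ∈ autG E rows 1 := by
    rw [← H_eq]
    exact (p.1 : H).2
  have hst : τ ∈ stabN E (autG E rows 1) (0 :: XL) := by
    refine ⟨hτaut, ?_⟩
    intro a ha
    obtain ⟨x, hx, rfl⟩ := List.mem_map.1 ha
    rcases List.mem_cons.1 hx with rfl | hx
    · exact h0
    · exact hX x hx
  have h1 := final_bot LfX hst
  apply Subtype.ext
  apply Subtype.ext
  exact h1

theorem card_Sp : Nat.card SpG = 979200 := by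
  rw [Cfsg.Agent.S0245.result card_F4 2]
  decide

theorem card_SS : Nat.card SS = 1958400 :=
  card_stab_of_trans inferInstance _ (d := 2058) (by simp) (by rw [card_H]) (by norm_num)

/-- The subgroup of index two. -/
theorem exists_N : ∃ N : Subgroup SS, N.index = 2 ∧ Nonempty (N ≃* SpG) := by
  obtain ⟨N, ⟨e⟩⟩ := graph_equiv CC CC_inj1 CC_inj2 CC_surj
  refine ⟨N, ?_, ⟨e⟩⟩
  have h1 := N.card_mul_index
  rw [Nat.card_congr e.toEquiv, card_Sp, card_SS] at h1
  omega

end Cfsg.Agent.Lib.HeGrp
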