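/-
The symplectic group `Sp₄(4)`: coordinates for its natural module, generation by the conjugates of
a few transvections, and graphs of isomorphisms.
-/
import Mathlib
import Cfsg.Agent.Lib.Classical.SymplecticTrans
import Cfsg.Agent.Lib.Classical.F4
import Cfsg.Agent.Lib.PermKit.Core

set_option autoImplicit false

open scoped Matrix
open Matrix

namespace Cfsg.Agent.Lib.HeGrp.SpF

open Cfsg.Agent.Lib.Classical Cfsg.Agent.Lib.Classical.FF4 Cfsg.Agent.Lib.Compute Cfsg.Agent.Lib.PermKit Equiv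

/-- The natural module. -/
abbrev VV := Fin 2 ⊕ Fin 2 → F4
/-- The group. -/
abbrev SpG := Matrix.symplecticGroup (Fin 2) F4
/-- The matrices. -/
abbrev MM := Matrix (Fin 2 ⊕ Fin 2) (Fin 2 ⊕ Fin 2) F4

/-- A bit. -/
def zb (n : ℕ) : ZMod 2 := bcond (Nat.beq (n % 2) 0) 0 1

/-- Digits of the field. -/
def dig (a : F4) : ℕ := a.re.val + 2 * a.im.val

/-- The field element of a digit. -/
def undig (n : ℕ) : F4 := ⟨zb n, zb (n / 2)⟩

lemma dig_lt (a : F4) : dig a < 4 := by revert a; decide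

lemma undig_dig (a : F4) : undig (dig a) = a := by revert a; decide

lemma undig_mod (n : ℕ) : undig n = undig (n % 4) := by
  have h1 : n % 4 % 2 = n % 2 := by omega
  have h2 : n % 4 / 2 % 2 = n / 2 % 2 := by omega
  simp only [undig, zb, h1, h2]

lemma dig_undig (n : ℕ) : dig (undig n) = n % 4 := by
  rw [undig_mod]
  have h : n % 4 < 4 := Nat.mod_lt _ (by norm_num)
  have h2 : ∀ m, m < 4 → dig (undig m) = m := by decide
  rw [h2 _ h]

/-- The code of a vector. -/
def vidx (v : VV) : ℕ :=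
  dig (v (.inl 0)) + 4 * dig (v (.inl 1)) + 16 * dig (v (.inr 0)) + 64 * dig (v (.inr 1))

/-- The vector of a code. -/
def vpt (n : ℕ) : VV := Sum.elim ![undig n, undig (n / 4)] ![undig (n / 16), undig (n / 64)]

lemma vidx_lt (v : VV) : vidx v < 256 := by
  have h1 := dig_lt (v (.inl 0))
  have h2 := dig_lt (v (.inl 1))
  have h3 := dig_lt (v (.inr 0))
  have h4 := dig_lt (v (.inr 1))
  unfold vidx
  omega

lemma vpt_vidx (v : VV) : vpt (vidx v) = v := by
  have h1 := dig_lt (v (.inl 0))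
  have h2 := dig_lt (v (.inl 1))
  have h3 := dig_lt (v (.inr 0))
  have h4 := dig_lt (v (.inr 1))
  have e1 : vidx v % 4 = dig (v (.inl 0)) := by unfold vidx; omega
  have e2 : vidx v / 4 % 4 = dig (v (.inl 1)) := by unfold vidx; omega
  have e3 : vidx v / 16 % 4 = dig (v (.inr 0)) := by unfold vidx; omega
  have e4 : vidx v / 64 % 4 = dig (v (.inr 1)) := by unfold vidx; omega
  funext s
  rcases s with i | i
  · fin_cases i
    · show undig (vidx v) = _
      rw [undig_mod, e1, undig_dig]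
      rfl
    · show undig (vidx v / 4) = _
      rw [undig_mod, e2, undig_dig]
      rfl
  · fin_cases i
    · show undig (vidx v / 16) = _
      rw [undig_mod, e3, undig_dig]
      rfl
    · show undig (vidx v / 64) = _
      rw [undig_mod, e4, undig_dig]
      rfl

lemma vidx_vpt {n : ℕ} (hn : n < 256) : vidx (vpt n) = n := by
  show dig (undig n) + 4 * dig (undig (n / 4)) + 16 * dig (undig (n / 16)) + 64 * dig (undig (n / 64)) = n
  rw [dig_undig, dig_undig, dig_undig, dig_undig]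
  omega

/-- The enumeration of the vectors. -/
def EV : Enc VV 256 where
  idx := vidx
  pt := vpt
  idx_lt := vidx_lt
  pt_idx := vpt_vidx
  idx_pt := fun _ hn => vidx_vpt hn

/-- The transvection in coordinates. -/
def tvF (u x : VV) : VV := fun i =>
  x i + (x (.inl 0) * u (.inr 0) + x (.inl 1) * u (.inr 1) + x (.inr 0) * u (.inl 0)
    + x (.inr 1) * u (.inl 1)) * u i

lemma f4_neg (a : F4) : -a = a := by revert a; decide

lemma sympForm_eq (x u : VV) : Cfsg.sympForm 2 F4 x u =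
    x (.inl 0) * u (.inr 0) + x (.inl 1) * u (.inr 1) + x (.inr 0) * u (.inl 0)
    + x (.inr 1) * u (.inl 1) := by
  simp [Cfsg.sympForm, dotProduct, Matrix.J, Matrix.mulVec, Fintype.sum_sum_type, Fin.sum_univ_two,
    f4_neg]
  ring

lemma tv_mulVec (u x : VV) : ((tv u 1 : SpG) : MM) *ᵥ x = tvF u x := by
  rw [tv_coe, sympTransvection_mulVec, sympForm_eq]
  funext i
  simp [tvF]

/-- Conjugates of a transvection. -/
lemma tv_conj (A : SpG) (u : VV) (c : F4) : A * tv u c * A⁻¹ = tv ((A : MM) *ᵥ u) c := by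
  rw [mul_inv_eq_iff_eq_mul]
  apply Subtype.ext
  apply Matrix.mulVec_injective
  funext x
  show ((A : MM) * ((tv u c : SpG) : MM)) *ᵥ x = (((tv ((A : MM) *ᵥ u) c : SpG) : MM) * (A : MM)) *ᵥ x
  rw [← Matrix.mulVec_mulVec, ← Matrix.mulVec_mulVec, tv_coe, tv_coe, sympTransvection_mulVec,
    sympTransvection_mulVec, sp_preserves, Matrix.mulVec_add, Matrix.mulVec_smul]

lemma tv_scale (w : VV) (c s : F4) (h : s * s = c) : tv (s • w) 1 = tv w c := by
  apply Subtype.ext
  apply Matrix.mulVec_injective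
  funext x
  show ((tv (s • w) 1 : SpG) : MM) *ᵥ x = ((tv w c : SpG) : MM) *ᵥ x
  rw [tv_coe, tv_coe, sympTransvection_mulVec, sympTransvection_mulVec, sympForm_smul_right, ← h,
    smul_smul]
  have h3 : ∀ y : F4, 1 * (s * y) * s = s * s * y := fun y => by ring
  rw [h3]

lemma tv_zero_left (c : F4) : tv (0 : VV) c = 1 := by
  apply Subtype.ext
  apply Matrix.mulVec_injective
  funext x
  show ((tv (0 : VV) c : SpG) : MM) *ᵥ x = (1 : MM) *ᵥ x
  rw [tv_coe, sympTransvection_mulVec, Matrix.one_mulVec]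
  simp

lemma tv_zero_right (w : VV) : tv w 0 = 1 := by
  apply Subtype.ext
  apply Matrix.mulVec_injective
  funext x
  show ((tv w 0 : SpG) : MM) *ᵥ x = (1 : MM) *ᵥ x
  rw [tv_coe, sympTransvection_mulVec, Matrix.one_mulVec]
  simp

lemma f4_fourth (c : F4) : (c * c) * (c * c) = c := by revert c; decide

/-- A subgroup containing the transvections `t_w(1)` is everything. -/
theorem eq_top_of_tv (I : Subgroup SpG) (h : ∀ w : VV, w ≠ 0 → tv w 1 ∈ I) : I = ⊤ := by
  rw [eq_top_iff, ← TT_eq_top (m := 2) (F := F4)]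
  refine (Subgroup.closure_le _).2 ?_
  rintro A ⟨w, c, hA⟩
  have hA' : A = tv w c := Subtype.ext hA
  rw [hA']
  by_cases hw : w = 0
  · rw [hw, tv_zero_left]; exact I.one_mem
  by_cases hc : c = 0
  · rw [hc, tv_zero_right]; exact I.one_mem
  have hs : (c * c) * (c * c) = c := f4_fourth c
  rw [← tv_scale w c (c * c) hs]
  refine h _ ?_
  intro h0
  have hcc : c * c ≠ 0 := mul_ne_zero hc hc
  exact hw ((smul_eq_zero.1 h0).resolve_left hcc)

/-- The action on vectors. -/
def actP : SpG →* Perm VV where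
  toFun A :=
    { toFun := fun v => (A : MM) *ᵥ v
      invFun := fun v => ((A⁻¹ : SpG) : MM) *ᵥ v
      left_inv := fun v => by
        show ((A⁻¹ : SpG) : MM) *ᵥ ((A : MM) *ᵥ v) = v
        rw [Matrix.mulVec_mulVec]
        show ((A⁻¹ * A : SpG) : MM) *ᵥ v = v
        rw [inv_mul_cancel]
        exact Matrix.one_mulVec v
      right_inv := fun v => by
        show (A : MM) *ᵥ (((A⁻¹ : SpG) : MM) *ᵥ v) = v
        rw [Matrix.mulVec_mulVec]
        show ((A * A⁻¹ : SpG) : MM) *ᵥ v = v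
        rw [mul_inv_cancel]
        exact Matrix.one_mulVec v }
  map_one' := by
    ext v : 1
    exact Matrix.one_mulVec v
  map_mul' A B := by
    ext v : 1
    show ((A * B : SpG) : MM) *ᵥ v = (A : MM) *ᵥ ((B : MM) *ᵥ v)
    rw [Matrix.mulVec_mulVec]
    rfl

@[simp] lemma actP_apply (A : SpG) (v : VV) : actP A v = (A : MM) *ᵥ v := rfl

/-- A subgroup containing transvections in a generating family and acting transitively. -/
theorem eq_top_of_orbit (I : Subgroup SpG) {fs : List (ℕ → ℕ)}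
    (hfs : ∀ f ∈ fs, ∃ u : VV, tv u 1 ∈ I ∧ ∀ i, i < 256 → f i = vidx (tvF u (vpt i)))
    {b fuel : ℕ} (hb : b < 256) (hbI : tv (vpt b) 1 ∈ I)
    (hall : allBelow (fun i => bcond (Nat.beq i 0) true (tb (bfs fs fuel b) i)) 256 = true) : I = ⊤ := by
  refine eq_top_of_tv I fun w hw => ?_
  have hK : ∀ f ∈ fs, InK EV (I.map actP) f := by
    intro f hf
    obtain ⟨u, hu, hc⟩ := hfs f hf
    refine ⟨actP (tv u 1), Subgroup.mem_map_of_mem _ hu, fun a => ?_⟩
    show f (vidx a) = vidx ((((tv u 1 : SpG) : MM)) *ᵥ a)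
    rw [hc _ (vidx_lt a), vpt_vidx, tv_mulVec]
  have hw0 : vidx w ≠ 0 := by
    intro h
    apply hw
    rw [← vpt_vidx w, h]
    funext s
    rcases s with i | i <;> fin_cases i <;> rfl
  have h1 := (allBelow_iff _ _).1 hall (vidx w) (vidx_lt w)
  have h2 : Nat.beq (vidx w) 0 = false := by
    cases h3 : Nat.beq (vidx w) 0
    · rfl
    · exact absurd (Nat.eq_of_beq_eq_true h3) hw0
  rw [h2, bcond_false, tb_eq] at h1
  obtain ⟨-, τ, hτ, ht⟩ := bfs_reach hK (E := EV) hb h1
  obtain ⟨A, hA, rfl⟩ := Subgroup.mem_map.1 hτ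
  have h3 : (A : MM) *ᵥ (vpt b) = w := by
    have h4 : (actP A) (vpt b) = vpt (vidx w) := ht
    rw [vpt_vidx] at h4
    exact h4
  rw [← h3, ← tv_conj]
  exact I.mul_mem (I.mul_mem hA hbI) (I.inv_mem hA)

/-- Subgroups of a product that are graphs of injections. -/
theorem graph_equiv {S T : Type*} [Group S] [Group T] (C : Subgroup (S × T))
    (h1 : ∀ p ∈ C, p.1 = 1 → p.2 = 1) (h2 : ∀ p ∈ C, p.2 = 1 → p.1 = 1)
    (hs : ∀ t : T, ∃ s : S, (s, t) ∈ C) : ∃ N : Subgroup S, Nonempty (N ≃* T) := by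
  let φ : C →* S := (MonoidHom.fst S T).comp C.subtype
  let ψ : C →* T := (MonoidHom.snd S T).comp C.subtype
  have hφ : Function.Injective φ := by
    rw [injective_iff_map_eq_one]
    intro p hp
    apply Subtype.ext
    exact Prod.ext hp (h1 p.1 p.2 hp)
  have hψ : Function.Bijective ψ := by
    constructor
    · rw [injective_iff_map_eq_one]
      intro p hp
      apply Subtype.ext
      exact Prod.ext (h2 p.1 p.2 hp) hp
    · intro t
      obtain ⟨s, hs⟩ := hs t
      exact ⟨⟨(s, t), hs⟩, rfl⟩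
  exact ⟨φ.range, ⟨(MonoidHom.ofInjective hφ).symm.trans (MulEquiv.ofBijective ψ hψ)⟩⟩

end Cfsg.Agent.Lib.HeGrp.SpF
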